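/-
ZD: the structure of a `K`-invariant 2-group `R` of transvections with `C_R(V) = V`: `R = R₀ U`.
-/
import Cfsg.Agent.ZD.Tools2

set_option autoImplicit false
set_option linter.unusedSectionVars false
open Cfsg Subgroup MulAction CL.Even CL.Grp CL.Loc
open CL.Bender (Fx st2)
open scoped Pointwise commutatorElement

namespace CL.ZD

variable {G : Type*} [Group G] [Finite G] {Ω : Type*} [MulAction G Ω] {D : Set G}
  {T₁ T B U K R R₀ : Subgroup G} {a b : Ω} {u : G} {F : Type} [Field F] [CharP F 2]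

/-- hypotheses on `R`. -/
structure RH (B U K R : Subgroup G) : Prop where
  two : IsPGroup 2 R
  V_le : B ⊔ U ≤ R
  le : R ≤ Trn B U
  cent : ∀ r ∈ R, r ∈ 𝒞(B ⊔ U) → r ∈ B ⊔ U
  K_norm : K ≤ 𝒩(R)
  not_le : ¬ R ≤ 𝒞(B ⊔ U)

/-- the subgroup `R₀` with `R = R₀ U`, on which squaring is `κ ρ`. -/
structure RS (C : Crd B U K F) (R R₀ : Subgroup G) (κ : F) : Prop where
  B_le : B ≤ R₀
  le : R₀ ≤ R
  K_norm : K ≤ 𝒩(R₀)
  surj : ∀ c, ∃ x ∈ R₀, C.ρ x = c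
  mem_B : ∀ x ∈ R₀, C.ρ x = 0 ↔ x ∈ B
  comm : ∀ x ∈ R₀, ∀ y ∈ R₀, x * y = y * x
  sq : ∀ x ∈ R₀, C.ι (x * x) = κ * C.ρ x
  decomp : ∀ r ∈ R, ∃ x ∈ R₀, ∃ v ∈ U, x * v = r
  card : Nat.card R₀ = Nat.card B ^ 2
  sq' : ∀ x ∈ R₀, ∀ v ∈ B ⊔ U, C.ι (x * v * (x * v)) = C.ρ x * (κ + C.lam v)

namespace RH

variable (r : RH B U K R) (C : Crd B U K F) (h : Cfg D u a b T₁ T B U K) (hZ : IsZD Ω D)
include r

theorem B_le : B ≤ R := le_sup_left.trans r.V_le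

theorem B_comm {x y : G} (hx : x ∈ R) (hy : y ∈ B) : y * x = x * y := comm_of_mem (r.le hx).1 hy

include C h hZ

theorem mem_V_iff {x : G} (hx : x ∈ R) : C.ρ x = 0 ↔ x ∈ B ⊔ U := by
  rw [C.ρ_eq_zero_iff h hZ (r.le hx)]
  exact ⟨r.cent x hx, fun e => h.T0_cent (h.V_le_T0 e)⟩

theorem sq_mem {x : G} (hx : x ∈ R) : x * x ∈ B := by
  by_cases e : x ∈ 𝒞(B ⊔ U)
  · rw [h.V_sq (r.cent x hx e)]
    exact one_mem _
  · exact C.mem_B_of_comm h hZ (r.le hx) e (r.cent _ (mul_mem hx hx) (C.sq_mem_cent h hZ (r.le hx)))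
      (mul_assoc x x x).symm

theorem comm_mem {x y : G} (hx : x ∈ R) (hy : y ∈ R) : x⁻¹ * (y * x * y⁻¹) ∈ B := by
  rw [show x⁻¹ * (y * x * y⁻¹) = x⁻¹ * x⁻¹ * (x * y * (x * y)) * (y⁻¹ * y⁻¹) by group]
  exact mul_mem (mul_mem (r.sq_mem C h hZ (inv_mem hx)) (r.sq_mem C h hZ (mul_mem hx hy)))
    (r.sq_mem C h hZ (inv_mem hy))

theorem surj (c : F) : ∃ x ∈ R, C.ρ x = c := C.surj_of_K h hZ r.le r.K_norm r.not_le c

theorem card : Nat.card R = Nat.card B * Nat.card (B ⊔ U : Subgroup G) := by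
  rw [C.card_of_surj h hZ r.le (r.surj C h hZ), le_antisymm (fun x (hx : x ∈ R ⊓ 𝒞(B ⊔ U)) => r.cent x hx.1 hx.2)
    (le_inf r.V_le (h.V_le_T0.trans h.T0_cent))]

/-- elements of `K` in the kernel centralise `R`. -/
theorem cent_of_kr {k : G} (hk : k ∈ K) (e : k ∈ kr Ω D (Hu Ω u)) : k ∈ 𝒞(R) := by
  have e1 := (C.χ_eq_one_iff_kr h hZ hk).2 e
  refine mem_cent_of_coprime h.V_two (Nat.coprime_two_right.2 (odd_ord_of_mem h.tor.odd hk)) (fun x hx => ?_) ?_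
  · have h1 := conj_mem (r.K_norm hk) (inv_mem hx)
    rw [show ⁅x, k⁆ = x * (k * x⁻¹ * k⁻¹) by rw [commutatorElement_def]; group,
      ← r.mem_V_iff C h hZ (mul_mem hx h1), C.ρ_mul h hZ (r.le hx) (r.le h1),
      C.ρ_conj_K h hZ hk (r.le (inv_mem hx)), e1, one_mul, C.ρ_inv h hZ (r.le hx), CharTwo.add_self_eq_zero]
  · rw [cent_sup]
    exact ⟨(C.χ_eq_one_iff h.K_norm_B hk).1 e1, h.K_cent hk⟩

theorem exists_RS : ∃ R₀ κ, RS C R R₀ κ := by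
  haveI : Finite F := Nat.finite_of_card_ne_zero (C.card_B ▸ Nat.card_pos.ne')
  obtain ⟨c, c0, c1⟩ : ∃ c : F, c ≠ 0 ∧ c ≠ 1 := by
    by_contra! e
    have h1 : (Set.univ : Set F) ⊆ {0, 1} := fun c _ => by_cases Or.inl fun c0 => Or.inr (e c c0)
    have h2 := (Set.ncard_le_ncard h1).trans (Set.ncard_insert_le _ _)
    have h3 := h.bt.four_le
    rw [Set.ncard_univ, ← C.card_B, Set.ncard_singleton] at h2
    omega
  obtain ⟨d, hd, hc⟩ := C.χ_surj c c0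
  have nB : R ≤ 𝒩(B) := fun x hx => cent_le_norm B (r.le hx).1
  have cjR : ∀ x ∈ R, d * x * d⁻¹ ∈ R := fun x hx => conj_mem (r.K_norm hd) hx
  have ρφ : ∀ x ∈ R, C.ρ (x⁻¹ * (d * x * d⁻¹)) = (1 + c) * C.ρ x := fun x hx => by
    rw [C.ρ_mul h hZ (r.le (inv_mem hx)) (r.le (cjR x hx)), C.ρ_inv h hZ (r.le hx), C.ρ_conj_K h hZ hd (r.le hx), hc]
    ring
  have c2 : 1 + c ≠ 0 := fun e => c1 (CharTwo.add_eq_zero.1 e).symm
  have ρB : ∀ x ∈ R, ∀ z ∈ B, C.ρ (x * z) = C.ρ x := fun x hx z hz => by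
    rw [C.ρ_mul h hZ (r.le hx) (r.le (r.B_le hz)), (r.mem_V_iff C h hZ (r.B_le hz)).2 (mem_sup_left hz), add_zero]
  let R₀ : Subgroup G :=
    { carrier := {x | ∃ y ∈ R, ∃ z ∈ B, x = y⁻¹ * (d * y * d⁻¹) * z}
      one_mem' := ⟨1, one_mem _, 1, one_mem _, by group⟩
      mul_mem' := by
        rintro _ _ ⟨y, hy, z, hz, rfl⟩ ⟨y', hy', z', hz', rfl⟩
        have m := mul_mem (inv_mem hy) (cjR y hy)
        refine ⟨y * y', mul_mem hy hy', _, mul_mem (mul_mem (conj_mem' (nB (cjR y' hy'))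
          (r.comm_mem C h hZ m hy')) (conj_mem' (nB (mul_mem (inv_mem hy') (cjR y' hy'))) hz)) hz', ?_⟩
        group
      inv_mem' := by
        rintro _ ⟨y, hy, z, hz, rfl⟩
        have m := mul_mem (inv_mem hy) (cjR y hy)
        refine ⟨y, hy, _, mul_mem (r.sq_mem C h hZ (inv_mem m)) (conj_mem (nB m) (inv_mem hz)), ?_⟩
        group }
  have le : R₀ ≤ R := by
    rintro _ ⟨y, hy, z, hz, rfl⟩
    exact mul_mem (mul_mem (inv_mem hy) (cjR y hy)) (r.B_le hz)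
  have hB : B ≤ R₀ := fun z hz => ⟨1, one_mem _, z, hz, by group⟩
  have hK : K ≤ 𝒩(R₀) := le_norm_of_cj_le fun e he x hx => by
    obtain ⟨y, hy, z, hz, e1⟩ := mem_cj.1 hx
    have h1 := conj_mem (r.K_norm he) hy
    refine ⟨_, h1, _, conj_mem (h.K_norm_B he) hz, ?_⟩
    rw [← conj_eq_of_mem (r.cent_of_kr C h hZ (mul_mem (mul_mem (mul_mem he hd) (inv_mem he)) (inv_mem hd))
      (h.tor.comm e he d hd)) (cjR _ h1)]
    calc x = e * (e⁻¹ * x * e) * e⁻¹ := by group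
      _ = _ := by rw [e1]; group
  have surj : ∀ c', ∃ x ∈ R₀, C.ρ x = c' := fun c' => by
    obtain ⟨y, hy, e⟩ := r.surj C h hZ (c' / (1 + c))
    exact ⟨_, ⟨y, hy, 1, one_mem _, (mul_one _).symm⟩, by rw [ρφ y hy, e, mul_div_cancel₀ _ c2]⟩
  have mB : ∀ x ∈ R₀, C.ρ x = 0 ↔ x ∈ B := fun x hx => by
    refine ⟨fun e => ?_, fun e => (r.mem_V_iff C h hZ (r.B_le e)).2 (mem_sup_left e)⟩
    obtain ⟨y, hy, z, hz, rfl⟩ := hx
    rw [ρB _ (mul_mem (inv_mem hy) (cjR y hy)) z hz, ρφ y hy, mul_eq_zero, or_iff_right c2,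
      r.mem_V_iff C h hZ hy] at e
    exact mul_mem ((C.lam_eq_iff e (conj_mem (h.K_norm_V hd) e)).1 (C.lam_K h hZ hd e).symm) hz
  obtain ⟨x₁, hx₁, e₁⟩ := surj 1
  have sq : ∀ x ∈ R₀, C.ι (x * x) = C.ι (x₁ * x₁) * C.ρ x := fun x hx => by
    by_cases e : C.ρ x = 0
    · rw [e, mul_zero, h.bt0.B_sq ((mB x hx).1 e), C.ι_one]
    obtain ⟨d', hd', e2⟩ := C.χ_surj _ e
    have m := conj_mem (hK hd') hx₁
    have h1 : (d' * x₁ * d'⁻¹)⁻¹ * x ∈ B := (mB _ (mul_mem (inv_mem m) hx)).1 (by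
      rw [C.ρ_mul h hZ (r.le (le (inv_mem m))) (r.le (le hx)), C.ρ_inv h hZ (r.le (le m)),
        C.ρ_conj_K h hZ hd' (r.le (le hx₁)), e₁, e2, mul_one, CharTwo.add_self_eq_zero])
    rw [mul_comm, ← e2, ← C.χ_conj d' hd' _ (r.sq_mem C h hZ (le hx₁))]
    congr 1
    set y := d' * x₁ * d'⁻¹ with hy
    calc x * x = y * (y⁻¹ * x * y) * (y⁻¹ * x) := by group
      _ = y * y * (y⁻¹ * x * (y⁻¹ * x)) := by rw [r.B_comm (le m) h1]; group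
      _ = _ := by rw [h.bt0.B_sq h1, hy]; group
  refine ⟨R₀, C.ι (x₁ * x₁), hB, le, hK, surj, mB, fun x hx y hy => ?_, sq, fun y hy => ?_, ?_, fun x hx v hv => ?_⟩
  · have m1 := r.sq_mem C h hZ (le hx)
    have m2 := r.sq_mem C h hZ (le hy)
    have := C.ι_inj (r.sq_mem C h hZ (le (mul_mem hx hy))) (mul_mem m1 m2) (by
      rw [C.ι_mul _ m1 _ m2, sq _ (mul_mem hx hy), sq x hx, sq y hy, C.ρ_mul h hZ (r.le (le hx)) (r.le (le hy)),
        mul_add])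
    rw [mul_assoc, mul_assoc, mul_right_inj, ← mul_assoc, ← mul_assoc, mul_left_inj] at this
    exact this.symm
  · obtain ⟨x, hx, e⟩ := surj (C.ρ y)
    obtain ⟨v, hv, z, hz, e1⟩ := h.mem_V.1 (r.cent _ (mul_mem (inv_mem (le hx)) hy)
      ((C.ρ_eq_iff h hZ (r.le (le hx)) (r.le hy)).1 e))
    exact ⟨x * z, mul_mem hx (hB hz), v, hv, by
      rw [mul_assoc, ← h.U_comm hv (h.bt0.B_le_T hz), e1, mul_inv_cancel_left]⟩
  · rw [C.card_of_surj h hZ (le.trans r.le) surj, le_antisymm (fun x (hx : x ∈ R₀ ⊓ 𝒞(B ⊔ U)) =>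
      (mB x hx.1).1 ((C.ρ_eq_zero_iff h hZ (r.le (le hx.1))).2 hx.2))
      (le_inf hB (le_sup_left.trans (h.V_le_T0.trans h.T0_cent))), pow_two]
  · have m1 := r.sq_mem C h hZ (le hx)
    have m2 := h.Trn_comm_mem hZ (r.le (le hx)) hv
    rw [mul_add, mul_comm, ← sq x hx, ← C.ι_comm h hZ (r.le (le hx)) hv, add_comm, ← C.ι_mul _ m2 _ m1]
    congr 1
    have e := h.V_comm hv (h.V_le_T0 (mem_sup_left (mul_mem m2 m1)))
    calc _ = v * (v⁻¹ * (x * v * x⁻¹) * (x * x)) * v := by group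
      _ = _ := by rw [e, mul_assoc, h.V_sq hv, mul_one]

end RH

end CL.ZD
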